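import Cfsg.Agent.H23.D4Spec.Rat
import Cfsg.Agent.H23.D4Spec.Elems

/-!
# Elements of order seven and three, and the vanishing of the norm
-/

set_option autoImplicit false
set_option maxRecDepth 100000

namespace Cfsg.Agent.H23.D4Spec

open Cfsg.Lie Cfsg.Agent.H88.AltD4Twist Module Polynomial
open scoped Matrix MatrixGroups

variable {K : Type*} [Field K] [CharP K 2] [Fintype K] (hK : Fintype.card K = 8)

omit [Fintype K] in
theorem bil_comm (x y : Fin 8 → K) : bil x y = bil y x := by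
  simp only [bil_eq]; ring

omit [Fintype K] in
theorem exists_inv_eigen {M : M8 K} (hJ : Mᵀ * J K * M = J K) {v : Fin 8 → K} {c : K} (hv : v ≠ 0) (hc : c ≠ 0)
    (h : M *ᵥ v = c • v) : ∃ w, w ≠ 0 ∧ M *ᵥ w = c⁻¹ • w := by
  by_contra hcon
  push Not at hcon
  have hinj : Function.Injective (Matrix.toLin' (M - c⁻¹ • 1)) := by
    rw [← LinearMap.ker_eq_bot, LinearMap.ker_eq_bot']
    intro w hw
    by_contra hw0
    refine hcon w hw0 ?_
    simpa [Matrix.sub_mulVec, Matrix.smul_mulVec, sub_eq_zero] using hw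
  refine hv (bil_nondeg fun z => ?_)
  obtain ⟨y, rfl⟩ := (LinearMap.injective_iff_surjective.1 hinj) z
  have h1 := bil_isom hJ v y
  rw [h, bil, smul_dotProduct, ← bil, smul_eq_mul] at h1
  rw [Matrix.toLin'_apply, Matrix.sub_mulVec, Matrix.smul_mulVec, Matrix.one_mulVec, bil, Matrix.mulVec_sub,
    Matrix.mulVec_smul, dotProduct_sub, dotProduct_smul, ← bil, ← bil, smul_eq_mul, sub_eq_zero, eq_inv_mul_iff_mul_eq₀ hc]
  exact h1

include hK in
theorem eigen_all {t : M8 K} (hT : Tri t) (hJ : tᵀ * J K * t = J K) (ht : t ^ 7 = 1) (hne : t ≠ 1) (hW : W t ≠ ⊥)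
    {r : K} (hr0 : r ≠ 0) (hr1 : r ≠ 1) : ∃ v, v ≠ 0 ∧ t *ᵥ v = r • v := by
  classical
  obtain ⟨p, -, -, -, hp, -⟩ := poly_data hK hT hJ (by decide) ht hW
  set ι := ZMod.castHom (dvd_refl 2) K
  have p7 : ∀ x : K, x ≠ 0 → x ^ 7 = 1 := fun x hx => by
    have h7 := FiniteField.pow_card_sub_one_eq_one x hx
    rwa [hK] at h7
  haveI : Fact (Nat.Prime 7) := ⟨by norm_num⟩
  have prim : ∀ x : K, x ≠ 0 → x ≠ 1 → IsPrimitiveRoot x 7 := fun x hx hx1 => by
    rw [← orderOf_eq_prime (p7 x hx) hx1]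
    exact IsPrimitiveRoot.orderOf x
  have sq' : ∀ x : K, (minpoly K t).IsRoot x → (minpoly K t).IsRoot (x ^ 2) := fun x hx => by
    rw [← hp, IsRoot, eval_map] at hx ⊢
    have e : (frobenius K 2).comp ι = ι := RingHom.ext_zmod _ _
    have := hom_eval₂ p ι (frobenius K 2) x
    rw [e, hx, map_zero, frobenius_def] at this
    exact this.symm
  have root_of : ∀ x : K, ∀ v : Fin 8 → K, v ≠ 0 → t *ᵥ v = x • v → (minpoly K t).IsRoot x := fun x v hv h => by
    have h1 := aeval_mulVec h (minpoly K t)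
    rw [minpoly.aeval, Matrix.zero_mulVec] at h1
    exact (smul_eq_zero.1 h1.symm).resolve_right hv
  have of_root : ∀ x : K, (minpoly K t).IsRoot x → ∃ v, v ≠ 0 ∧ t *ᵥ v = x • v := fun x hx => by
    rw [← Matrix.minpoly_toLin'] at hx
    obtain ⟨v, hv⟩ := (Module.End.hasEigenvalue_of_isRoot hx).exists_hasEigenvector
    exact ⟨v, hv.2, by simpa using hv.apply_eq_smul⟩
  obtain ⟨l, hl, hl1⟩ : ∃ l, (minpoly K t).IsRoot l ∧ l ≠ 1 := by
    by_contra h
    push Not at h
    have hcop : IsCoprime (minpoly K t) (∏ x ∈ (nthRootsFinset 7 (1 : K)).erase 1, (X - C x)) :=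
      IsCoprime.prod_right fun x hx => by
        refine ((irreducible_X_sub_C x).coprime_iff_not_dvd.2 fun hd => ?_).symm
        exact (Finset.mem_erase.1 hx).1 (h x (dvd_iff_isRoot.1 hd))
    have hd : minpoly K t ∣ X ^ 7 - 1 := minpoly.dvd K t (by simp [ht])
    rw [X_pow_sub_one_eq_prod (by norm_num) (prim r hr0 hr1),
      ← Finset.mul_prod_erase _ _ ((mem_nthRootsFinset (by norm_num) 1).2 (one_pow 7))] at hd
    have h1 := aeval_eq_zero_of_dvd_aeval_eq_zero (hcop.dvd_of_dvd_mul_right hd) (minpoly.aeval K t)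
    exact hne (by simpa [sub_eq_zero] using h1)
  obtain ⟨v1, hv1, e1⟩ := of_root l hl
  have hl0 : l ≠ 0 := by
    rintro rfl
    have h1 := aeval_mulVec e1 (X ^ 7 - 1)
    simp [ht] at h1
    exact hv1 h1
  have inv' : ∀ x : K, x ≠ 0 → (minpoly K t).IsRoot x → (minpoly K t).IsRoot x⁻¹ := fun x hx h => by
    obtain ⟨v, hv, e⟩ := of_root x h
    obtain ⟨w, hw, e'⟩ := exists_inv_eigen hJ hv hx e
    exact root_of _ w hw e'
  have hinv : l⁻¹ = l ^ 6 := inv_eq_of_mul_eq_one_right (by rw [← pow_succ', p7 l hl0])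
  have h6 : (minpoly K t).IsRoot (l ^ 6) := hinv ▸ inv' l hl0 hl
  have h2 := sq' l hl
  have h4 : (minpoly K t).IsRoot (l ^ 4) := by rw [show 4 = 2 * 2 from rfl, pow_mul]; exact sq' _ h2
  have h5 : (minpoly K t).IsRoot (l ^ 5) := by
    have := sq' _ h6
    rwa [← pow_mul, show 6 * 2 = 7 + 5 from rfl, pow_add, p7 l hl0, one_mul] at this
  have h3 : (minpoly K t).IsRoot (l ^ 3) := by
    have := sq' _ h5
    rwa [← pow_mul, show 5 * 2 = 7 + 3 from rfl, pow_add, p7 l hl0, one_mul] at this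
  obtain ⟨i, hi, rfl⟩ := (prim l hl0 hl1).eq_pow_of_pow_eq_one (p7 r hr0)
  apply of_root
  interval_cases i
  · exact absurd (pow_zero l) hr1
  · simpa using hl
  all_goals assumption

include hK in
theorem seven_trivial {t x : M8 K} (hT : Tri t) (hJ : tᵀ * J K * t = J K) (ht : t ^ 7 = 1) (hne : t ≠ 1)
    (hev : Even (finrank K (R t))) (hevx : Even (finrank K (R x))) {n : ℕ} (hn : Nat.Coprime n 7) (hxn : x ^ n = 1)
    (hc : Commute x t) {w : Fin 8 → K} (hw : w ≠ 0) (hwt : t *ᵥ w = w) (hwx : x *ᵥ w = w) : x = 1 := by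
  classical
  have hW : W t ≠ ⊥ := fun e => hw ((Submodule.mem_bot K).1 (e ▸ mem_W.2 hwt))
  set S : Finset K := (Finset.univ.erase 0).erase 1
  have hS : ∀ r : ↥S, (r : K) ≠ 0 ∧ (r : K) ≠ 1 := fun r => by
    have := r.2
    simp only [S, Finset.mem_erase, Finset.mem_univ, and_true] at this
    exact ⟨this.2, this.1⟩
  have hcard : Fintype.card ↥S = 6 := by
    rw [Fintype.card_coe]
    simp [S, Finset.card_erase_of_mem, hK]
  choose v hv0 hv using fun r : ↥S => eigen_all hK hT hJ ht hne hW (hS r).1 (hS r).2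
  have hvR : ∀ r, v r ∈ R t := fun r => mem_R.2 ⟨((r : K) - 1)⁻¹ • v r, by
    rw [Matrix.mulVec_smul, hv, smul_smul, ← sub_smul]
    have h1 : (r : K) - 1 ≠ 0 := sub_ne_zero.2 (hS r).2
    rw [show ((r : K) - 1)⁻¹ * r - ((r : K) - 1)⁻¹ = 1 by field_simp, one_smul]⟩
  have hli : LinearIndependent K v :=
    Module.End.eigenvectors_linearIndependent' (Matrix.toLin' t) (fun r : ↥S => (r : K)) Subtype.val_injective v
      fun r => ⟨Module.End.mem_eigenspace_iff.2 (by simpa using hv r), hv0 r⟩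
  have hle : Submodule.span K (Set.range v) ≤ R t := Submodule.span_le.2 (Set.range_subset_iff.2 hvR)
  have hd := finrank_W_add_R t
  have hpos : 0 < finrank K (W t) := Nat.pos_of_ne_zero fun e => hW (Submodule.finrank_eq_zero.1 e)
  have hsp : finrank K (Submodule.span K (Set.range v)) = 6 := by rw [finrank_span_eq_card hli, hcard]
  have hR6 : finrank K (R t) = 6 := by
    have := Submodule.finrank_mono hle
    obtain ⟨e, he⟩ := hev
    omega
  have hspan : Submodule.span K (Set.range v) = R t :=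
    Submodule.eq_of_le_of_finrank_eq hle (hsp.trans hR6.symm)
  have hfix : ∀ r, x *ᵥ v r = v r := by
    intro r
    have hmem : x *ᵥ v r ∈ Submodule.span K (Set.range v) := hspan ▸ R_comm hc (hvR r)
    obtain ⟨c, hcs⟩ := (Submodule.mem_span_range_iff_exists_fun K).1 hmem
    have h1 : t *ᵥ (x *ᵥ v r) = (r : K) • (x *ᵥ v r) := by
      rw [Matrix.mulVec_mulVec, ← hc.eq, ← Matrix.mulVec_mulVec, hv, Matrix.mulVec_smul]
    rw [← hcs, Matrix.mulVec_sum, Finset.smul_sum, ← sub_eq_zero, ← Finset.sum_sub_distrib] at h1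
    simp only [Matrix.mulVec_smul, hv, smul_smul, ← sub_smul] at h1
    have h2 := Fintype.linearIndependent_iff.1 hli _ h1
    have h3 : x *ᵥ v r = c r • v r := by
      rw [← hcs, Finset.sum_eq_single r (fun i _ hir => ?_) (by simp)]
      have h4 : c i * ((i : K) - r) = 0 := by linear_combination h2 i
      rw [(mul_eq_zero.1 h4).resolve_right (sub_ne_zero.2 fun e => hir (Subtype.ext e)), zero_smul]
    have h5 := aeval_mulVec h3 (X ^ n - 1)
    simp only [map_sub, map_pow, aeval_X, map_one, hxn, sub_self, Matrix.zero_mulVec, eval_sub, eval_pow, eval_X,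
      eval_one] at h5
    have h6 := sub_eq_zero.1 ((smul_eq_zero.1 h5.symm).resolve_right (hv0 r))
    have hn0 : n ≠ 0 := by rintro rfl; norm_num at hn
    have hcr : c r ≠ 0 := fun e => by rw [e, zero_pow hn0] at h6; exact zero_ne_one h6
    have h7 := FiniteField.pow_card_sub_one_eq_one (c r) hcr
    rw [hK] at h7
    have h8 : c r = 1 := by
      have h9 := pow_gcd_eq_one.2 ⟨h6, (h7 : c r ^ 7 = 1)⟩
      rwa [hn.gcd_eq_one, pow_one] at h9
    rw [h3, h8, one_smul]
  have hRW : R t ≤ W x := hspan ▸ Submodule.span_le.2 (Set.range_subset_iff.2 fun r => mem_W.2 (hfix r))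
  have hlt : R t < W x := lt_of_le_of_ne hRW fun e => hw <| by
    exact Submodule.disjoint_def.1 (disjoint_W_R (by decide) ht) w (mem_W.2 hwt) (e ▸ mem_W.2 hwx)
  have h7 := Submodule.finrank_lt_finrank_of_lt hlt
  have h8 := finrank_W_add_R x
  obtain ⟨e, he⟩ := hevx
  exact R_bot_iff.1 (Submodule.finrank_eq_zero.1 (by omega))

include hK in
theorem even_of_fpf {z : M8 K} (hz : z ^ 3 = 1) {S : Submodule K (Fin 8 → K)} (hS : ∀ y ∈ S, z *ᵥ y ∈ S)
    (hfix : ∀ y ∈ S, z *ᵥ y = y → y = 0) : Even (finrank K S) := by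
  classical
  haveI : Fact (Nat.Prime 3) := ⟨Nat.prime_three⟩
  set f : Function.End ↥S := fun y => ⟨z *ᵥ (y : Fin 8 → K), hS y y.2⟩
  have hf : f ^ 3 ^ 1 = 1 := funext fun y => Subtype.ext <| by
    show z *ᵥ (z *ᵥ (z *ᵥ (y : Fin 8 → K))) = y
    rw [Matrix.mulVec_mulVec, Matrix.mulVec_mulVec, ← pow_two, ← pow_succ, hz, Matrix.one_mulVec]
  letI : Fintype ↥S := Fintype.ofFinite _
  have h := Equiv.Perm.card_fixedPoints_modEq (f := f) hf
  have h1 : Fintype.card f.fixedPoints = 1 := Fintype.card_eq_one_iff.2 ⟨⟨0, Subtype.ext (Matrix.mulVec_zero z)⟩,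
    fun y => Subtype.ext (Subtype.ext (hfix _ y.1.2 (congrArg Subtype.val y.2)))⟩
  rw [h1, ← Nat.card_eq_fintype_card, Module.natCard_eq_pow_finrank (K := K), Nat.card_eq_fintype_card, hK] at h
  by_contra hodd
  obtain ⟨c, hc⟩ := Nat.not_even_iff_odd.1 hodd
  rw [hc, Nat.ModEq, Nat.pow_mod, show 8 % 3 = 2 from rfl, pow_succ, pow_mul, Nat.mul_mod, Nat.pow_mod,
    show 2 ^ 2 % 3 = 1 from rfl, one_pow] at h
  norm_num at h

include hK in
theorem even_map {x z : M8 K} (hz : z ^ 3 = 1) (hc : Commute x z) (hev : Even (finrank K (R x))) :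
    Even (finrank K ((W z).map (Matrix.toLin' (x - 1)))) := by
  have hcompl := isCompl_W_R (by decide) hz
  have hc' : Commute (x - 1) z := hc.sub_left (Commute.one_left z)
  have hP : (W z).map (Matrix.toLin' (x - 1)) ≤ W z := by
    rintro _ ⟨y, hy, rfl⟩; rw [Matrix.toLin'_apply]; exact W_comm hc' hy
  have hQ : (R z).map (Matrix.toLin' (x - 1)) ≤ R z := by
    rintro _ ⟨y, hy, rfl⟩; rw [Matrix.toLin'_apply]; exact R_comm hc' hy
  have hU : Even (finrank K ((R z).map (Matrix.toLin' (x - 1)))) := by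
    refine even_of_fpf hK hz ?_ fun y hy hy' =>
      Submodule.disjoint_def.1 hcompl.disjoint y (mem_W.2 hy') (hQ hy)
    rintro _ ⟨y, hy, rfl⟩
    exact ⟨z *ᵥ y, R_comm (Commute.refl z) hy, by
      simp only [Matrix.toLin'_apply, Matrix.mulVec_mulVec, hc'.eq]⟩
  have hsum := Submodule.finrank_sup_add_finrank_inf_eq ((W z).map (Matrix.toLin' (x - 1)))
    ((R z).map (Matrix.toLin' (x - 1)))
  rw [(hcompl.disjoint.mono hP hQ).eq_bot, finrank_bot, add_zero, ← Submodule.map_sup, hcompl.sup_eq_top,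
    Submodule.map_top] at hsum
  rw [R, hsum, Nat.even_add] at hev
  exact hev.2 hU

omit [CharP K 2] [Fintype K] in
theorem map_lt {A : M8 K} {X : Submodule K (Fin 8 → K)} {x : Fin 8 → K} (hx : x ∈ X) (hx0 : x ≠ 0) (hAx : A *ᵥ x = 0) :
    finrank K (X.map (Matrix.toLin' A)) < finrank K X := by
  rw [← LinearMap.range_domRestrict, ← LinearMap.finrank_range_add_finrank_ker ((Matrix.toLin' A).domRestrict X)]
  refine Nat.lt_add_of_pos_right (Nat.pos_of_ne_zero fun e => hx0 ?_)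
  have hmem : (⟨x, hx⟩ : X) ∈ LinearMap.ker ((Matrix.toLin' A).domRestrict X) := by simpa using hAx
  rw [Submodule.finrank_eq_zero.1 e, Submodule.mem_bot] at hmem
  exact congrArg Subtype.val hmem

omit [Fintype K] in
theorem sub_one_pow (M : M8 K) (a : ℕ) : (M - 1) ^ 2 ^ a = M ^ 2 ^ a - 1 := by
  rw [sub_pow_char_pow_of_commute (p := 2) (h := Commute.one_right M), one_pow]

omit [Fintype K] in
theorem geom_two (M : M8 K) (a : ℕ) : ∑ i ∈ Finset.range (2 ^ a), M ^ i = (M - 1) ^ (2 ^ a - 1) := by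
  induction a with
  | zero => simp
  | succ a ih =>
    have h1 := Nat.one_le_two_pow (n := a)
    rw [pow_succ, Nat.mul_two, Finset.sum_range_add, show 2 ^ a + 2 ^ a - 1 = 2 ^ a + (2 ^ a - 1) by omega,
      pow_add, sub_one_pow, CharTwo.sub_eq_add (M ^ 2 ^ a), add_mul, one_mul, ← ih, Finset.mul_sum, add_comm]
    simp only [← pow_add]

omit [CharP K 2] [Fintype K] in
theorem geom_mul (M : M8 K) (n m : ℕ) : ∑ i ∈ Finset.range (n * m), M ^ i =
    (∑ i ∈ Finset.range n, M ^ i) * ∑ j ∈ Finset.range m, (M ^ n) ^ j := by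
  induction m with
  | zero => simp
  | succ m ih =>
    rw [Nat.mul_succ, Finset.sum_range_add, ih, Finset.sum_range_succ (n := m), mul_add, Finset.sum_mul _ _ ((M ^ n) ^ m)]
    congr 1
    refine Finset.sum_congr rfl fun i _ => ?_
    rw [← pow_mul, ← pow_add, add_comm]

omit [CharP K 2] [Fintype K] in
theorem pow_mono' {A : M8 K} {w : Fin 8 → K} {j i : ℕ} (hji : j ≤ i) (h : (A ^ j) *ᵥ w = 0) : (A ^ i) *ᵥ w = 0 := by
  obtain ⟨e, rfl⟩ := Nat.exists_eq_add_of_le hji
  rw [add_comm, pow_add, ← Matrix.mulVec_mulVec, h, Matrix.mulVec_zero]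

include hK in
theorem norm_cases (g : ↥(twistedD4 K 2)) (hne : ∑ i ∈ Finset.range (orderOf g), rho 2 g ^ i ≠ 0) :
    orderOf g ∈ ([1, 2, 3, 4, 6, 7, 9] : List ℕ) := by
  have hinj := rho_injective hK
  set M := rho 2 g with hMdef
  have hk : orderOf g ≠ 0 := (orderOf_pos g).ne'
  obtain ⟨a, m, hm, hkam⟩ := Nat.exists_eq_two_pow_mul_odd hk
  rw [hkam] at hne ⊢
  set s := M ^ 2 ^ a with hs
  have hdvd : ∀ j, M ^ j = 1 ↔ 2 ^ a * m ∣ j := fun j => by
    rw [← hkam, orderOf_dvd_iff_pow_eq_one, hMdef, ← map_pow, ← map_one (rho (K := K) 2), hinj.eq_iff]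
  have hsj : ∀ j, s ^ j = 1 ↔ m ∣ j := fun j => by
    rw [hs, ← pow_mul, hdvd, Nat.mul_dvd_mul_iff_left (by positivity)]
  have hsm : s ^ m = 1 := (hsj m).2 dvd_rfl
  have hTri : ∀ i, Tri (M ^ i) := fun i => by rw [hMdef, ← map_pow]; exact rho_tri hK _
  have hIso : ∀ i, (M ^ i)ᵀ * J K * M ^ i = J K := fun i => by rw [hMdef, ← map_pow]; exact rho_isom 2 _
  have hEv : ∀ i, Even (finrank K (R (M ^ i))) := fun i => by rw [hMdef, ← map_pow]; exact rho_even 2 _
  set A := M - 1 with hA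
  have hAs : Commute A s := (Commute.self_pow M _).sub_left (Commute.one_left _)
  have hWA : ∀ x ∈ W s, A *ᵥ x ∈ W s := fun x hx => W_comm hAs hx
  have hnil : ∀ x ∈ W s, (A ^ 2 ^ a) *ᵥ x = 0 := fun x hx => by
    rw [hA, sub_one_pow, Matrix.sub_mulVec, Matrix.one_mulVec, mem_W.1 hx, sub_self]
  obtain ⟨w, hwW, hw⟩ : ∃ w ∈ W s, (A ^ (2 ^ a - 1)) *ᵥ w ≠ 0 := by
    by_contra h
    push Not at h
    refine hne (Matrix.toLin'.injective (LinearMap.ext fun v => ?_))
    rw [geom_mul, geom_two, Matrix.toLin'_apply, ← Matrix.mulVec_mulVec, map_zero, LinearMap.zero_apply, ← hs]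
    refine h _ (mem_W.2 ?_)
    have h1 := mul_geom_sum s m
    rw [hsm, sub_self, sub_mul, one_mul, sub_eq_zero] at h1
    rw [Matrix.mulVec_mulVec, h1]
  have hw0 : w ≠ 0 := fun e => hw (by rw [e, Matrix.mulVec_zero])
  have hWs : W s ≠ ⊥ := fun e => hw0 ((Submodule.mem_bot K).1 (e ▸ hwW))
  obtain ⟨x0, hx0W, hx00, hAx0⟩ := exists_fixed hWA hWs hnil
  have hMx0 : M *ᵥ x0 = x0 := by
    rwa [hA, Matrix.sub_mulVec, Matrix.one_mulVec, sub_eq_zero] at hAx0
  by_cases hm1 : m = 1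
  · subst hm1
    have hev := hEv 1
    rw [pow_one] at hev
    have hle : finrank K ((W s).map (Matrix.toLin' A)) ≤ 6 := by
      have h1 : finrank K ((W s).map (Matrix.toLin' A)) ≤ finrank K (R M) :=
        Submodule.finrank_mono LinearMap.map_le_range
      have h2 := finrank_W_add_R M
      have h3 : finrank K (W M) ≠ 0 := fun e => hx00 <| by
        have : x0 ∈ W M := mem_W.2 hMx0
        rwa [Submodule.finrank_eq_zero.1 e, Submodule.mem_bot] at this
      obtain ⟨c, hc⟩ := hev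
      omega
    have ha : a ≤ 2 := by
      by_contra ha
      have : 2 ^ 3 ≤ 2 ^ a := Nat.pow_le_pow_right (by norm_num) (by omega)
      exact hw (pow_mono' (by omega) (nil_of_image hWA hnil hle w hwW))
    interval_cases a <;> simp
  have hmo : m ∣ oddOrd := by
    have h1 : 2 ^ a * m ∣ 2 ^ 12 * oddOrd := by
      rw [← hkam, oddOrd, ← card_eq hK]; exact orderOf_dvd_natCard g
    exact (Nat.Coprime.pow_right 12 (Nat.coprime_two_right.2 hm)).dvd_of_dvd_mul_left ((dvd_mul_left m _).trans h1)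
  have hs1 : s ≠ 1 := fun e => hm1 (Nat.dvd_one.1 ((hsj 1).1 (by rw [pow_one, e])))
  have hd4 : finrank K (W s) ≤ 4 := four (hTri _) (hIso _) hm hsm hs1
  have ha : a ≤ 2 := by
    by_contra ha
    have : 2 ^ 3 ≤ 2 ^ a := Nat.pow_le_pow_right (by norm_num) (by omega)
    exact hw (pow_mono' (by omega) (nil_bound hWA hnil hd4 w hwW))
  have h63 : m ∣ 63 := (hsj 63).1 (sixty_three hK (hTri _) (hIso _) hm hmo hsm hWs)
  have hm63 : m ∈ Nat.divisors 63 := Nat.mem_divisors.2 ⟨h63, by norm_num⟩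
  rw [show Nat.divisors 63 = {1, 3, 7, 9, 21, 63} by decide] at hm63
  simp only [Finset.mem_insert, Finset.mem_singleton] at hm63
  rcases hm63 with h | h | h | h | h | h
  · exact absurd h hm1
  · subst h
    rcases (show a = 0 ∨ a = 1 ∨ a = 2 by omega) with rfl | rfl | rfl
    · simp
    · simp
    · exfalso
      have hev := even_map hK hsm (Commute.self_pow M _) (by have := hEv 1; rwa [pow_one] at this)
      rw [← hA] at hev
      have h2 := map_lt hx0W hx00 hAx0
      obtain ⟨c, hc⟩ := hev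
      exact hw (pow_mono' (by norm_num) (nil_of_image hWA hnil (r := 2) (by omega) w hwW))
  · subst h
    rcases (show a = 0 ∨ 1 ≤ a by omega) with rfl | ha1
    · simp
    · exfalso
      have hx : M ^ 7 = 1 := seven_trivial hK (hTri _) (hIso _) hsm hs1 (hEv _) (hEv 7) (n := 2 ^ a)
        (Nat.Coprime.pow_left a (by norm_num)) (by rw [← pow_mul, hdvd, mul_comm])
        ((Commute.refl M).pow_pow _ _) hx00 (mem_W.1 hx0W) (mem_W.1 (W_le_W_pow M 7 (mem_W.2 hMx0)))
      have h1 := Nat.le_of_dvd (by norm_num) ((hdvd 7).1 hx)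
      have : 2 ≤ 2 ^ a := Nat.le_self_pow (by omega) 2
      omega
  · subst h
    rcases (show a = 0 ∨ a = 1 ∨ a = 2 by omega) with rfl | rfl | rfl
    · simp
    all_goals exfalso
    · have hz : (s ^ 3) ^ 3 = 1 := by rw [← pow_mul]; exact hsm
      have hz1 : s ^ 3 ≠ 1 := fun e => by have := (hsj 3).1 e; norm_num at this
      have hd : finrank K (W (s ^ 3)) ≤ 2 := nine hK (hTri _) (hIso _) hsm hz1 hWs
      have hev := even_map hK hz (x := M ^ 9) (((Commute.refl M).pow_pow 9 _).pow_right 3) (hEv 9)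
      have hmem : x0 ∈ W (s ^ 3) := W_le_W_pow s 3 hx0W
      have h2 := map_lt (A := M ^ 9 - 1) hmem hx00 (by
        rw [sub_one_mulVec, mem_W.1 (W_le_W_pow M 9 (mem_W.2 hMx0)), sub_self])
      obtain ⟨c, hc⟩ := hev
      have h0 : (W (s ^ 3)).map (Matrix.toLin' (M ^ 9 - 1)) = ⊥ := Submodule.finrank_eq_zero.1 (by omega)
      have h3 : (M ^ 9 - 1) *ᵥ w = 0 := by
        have := Submodule.mem_map_of_mem (f := Matrix.toLin' (M ^ 9 - 1)) (W_le_W_pow s 3 hwW)
        rwa [h0, Submodule.mem_bot, Matrix.toLin'_apply] at this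
      apply hw
      have h4 : (M ^ 2) ^ 4 *ᵥ w = w := mem_W.1 (W_le_W_pow s 4 hwW)
      rw [sub_one_mulVec, show M ^ 9 = M * (M ^ 2) ^ 4 by rw [← pow_mul, ← pow_succ'], ← Matrix.mulVec_mulVec,
        h4] at h3
      simpa [hA, sub_one_mulVec] using h3
    · have hz1 : s ^ 3 ≠ 1 := fun e => by have := (hsj 3).1 e; norm_num at this
      have hd : finrank K (W (s ^ 3)) ≤ 2 := nine hK (hTri _) (hIso _) hsm hz1 hWs
      have hle : finrank K (W s) ≤ 2 := (Submodule.finrank_mono (W_le_W_pow s 3)).trans hd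
      exact hw (pow_mono' (by norm_num) (nil_bound hWA hnil hle w hwW))
  all_goals
    exfalso
    have h7m : 7 ∣ m := by subst h; norm_num
    obtain ⟨q, hq⟩ := h7m
    have hsq : (s ^ q) ^ 7 = 1 := by rw [← pow_mul, mul_comm, ← hq]; exact hsm
    have hq' : ¬ m ∣ q := fun e => by
      have := Nat.le_of_dvd (by omega) e
      omega
    have hsq1 : s ^ q ≠ 1 := fun e => hq' ((hsj q).1 e)
    have hs7 : s ^ 7 = 1 := seven_trivial hK (t := s ^ q) (x := s ^ 7)
      (by rw [hs, ← pow_mul]; exact hTri _) (by rw [hs, ← pow_mul]; exact hIso _) hsq hsq1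
      (by rw [hs, ← pow_mul]; exact hEv _) (by rw [hs, ← pow_mul]; exact hEv _) (n := q)
      (by rw [show q = m / 7 by omega]; subst h; norm_num) (by rw [← pow_mul, ← hq]; exact hsm)
      ((Commute.refl s).pow_pow _ _) hw0 (mem_W.1 (W_le_W_pow s q hwW)) (mem_W.1 (W_le_W_pow s 7 hwW))
    have := Nat.le_of_dvd (by norm_num) ((hsj 7).1 hs7)
    omega

end Cfsg.Agent.H23.D4Spec
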